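import Mathlib

/-!
# A group of order `2 p^3` with trivial centralizer in large projective linear groups

The group is the elementary abelian group of rank three inverted by an involution; two of the generators act
as the arrows of a preprojective Kronecker module, whose endomorphisms are scalars.
-/

set_option autoImplicit false
set_option linter.unusedSectionVars false

namespace CfsgLib.KroneckerBrick

open Matrix

variable (p : ℕ) [Fact p.Prime]

/-- The sign action. -/
def signAut : ℤˣ →* MulAut (Multiplicative (Fin 3 → ZMod p)) where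
  toFun u := AddEquiv.toMultiplicative
    { toFun := fun v i => ((u : ℤ) : ZMod p) * v i
      invFun := fun v i => ((u : ℤ) : ZMod p) * v i
      left_inv := fun v => funext fun i => by
        show _ * (_ * v i) = v i
        rw [← mul_assoc, ← Int.cast_mul, ← Units.val_mul, Int.units_mul_self, Units.val_one, Int.cast_one, one_mul]
      right_inv := fun v => funext fun i => by
        show _ * (_ * v i) = v i
        rw [← mul_assoc, ← Int.cast_mul, ← Units.val_mul, Int.units_mul_self, Units.val_one, Int.cast_one, one_mul]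
      map_add' := fun v w => funext fun i => mul_add _ _ _ }
  map_one' := MulEquiv.ext fun v => funext fun i => by
    show ((((1 : ℤˣ) : ℤ)) : ZMod p) * _ = _
    simp
    rfl
  map_mul' u w := MulEquiv.ext fun v => funext fun i => by
    show ((((u * w : ℤˣ) : ℤ)) : ZMod p) * _ = ((u : ℤ) : ZMod p) * (((w : ℤ) : ZMod p) * _)
    rw [Units.val_mul, Int.cast_mul, mul_assoc]

/-- The group of order `2 p^3`. -/
abbrev Grp : Type := Multiplicative (Fin 3 → ZMod p) ⋊[signAut p] ℤˣ

theorem card_grp : Nat.card (Grp p) = 2 * p ^ 3 := by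
  rw [SemidirectProduct.card, Nat.card_congr Multiplicative.toAdd, Nat.card_fun, Nat.card_fin, Nat.card_zmod,
    Nat.card_eq_fintype_card (α := ℤˣ), Fintype.card_units_int]
  ring

variable {p} {m : ℕ}

/-- The three arrows. -/
def arrow (v : Fin 3 → ZMod p) : Matrix (Fin (m + 1)) (Fin m) (ZMod p) :=
  Matrix.of fun i j => (if i.val = j.val then v 0 else 0) + (if i.val = j.val + 1 then v 1 else 0) +
    (if i.val = 0 ∧ j.val + 1 = m then v 2 else 0)

theorem arrow_add (v w : Fin 3 → ZMod p) : arrow (m := m) (v + w) = arrow v + arrow w := by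
  ext i j
  simp only [arrow, Matrix.of_apply, Matrix.add_apply, Pi.add_apply]
  split_ifs <;> ring

theorem arrow_smul (c : ZMod p) (v : Fin 3 → ZMod p) : arrow (m := m) (fun i => c * v i) = c • arrow v := by
  ext i j
  simp only [arrow, Matrix.of_apply, Matrix.smul_apply, smul_eq_mul]
  split_ifs <;> ring

theorem arrow_zero : arrow (m := m) (0 : Fin 3 → ZMod p) = 0 := by
  ext i j; simp [arrow]

theorem eq_zero_of_arrow (hm : 3 ≤ m) {v : Fin 3 → ZMod p} (h : arrow (m := m) v = 0) : v = 0 := by
  have h0 := congrFun (congrFun h ⟨0, by omega⟩) ⟨0, by omega⟩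
  have h1 := congrFun (congrFun h ⟨1, by omega⟩) ⟨0, by omega⟩
  have h2 := congrFun (congrFun h ⟨0, by omega⟩) ⟨m - 1, by omega⟩
  simp [arrow, show ¬ m = 1 by omega, show ¬ (0 + 1 = m) by omega] at h0 h1
  simp [arrow, show ¬ (0 = m - 1) by omega, show m - 1 + 1 = m by omega, show ¬ (0 = m) by omega] at h2
  funext i
  fin_cases i <;> simpa

/-- The unipotent part. -/
def uni : Multiplicative (Fin 3 → ZMod p) →* Matrix.SpecialLinearGroup (Fin m ⊕ Fin (m + 1)) (ZMod p) where
  toFun v := ⟨fromBlocks 1 0 (arrow v.toAdd) 1, by rw [det_fromBlocks_zero₁₂, det_one, det_one, mul_one]⟩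
  map_one' := Subtype.ext (by
    show fromBlocks 1 0 (arrow (0 : Fin 3 → ZMod p)) 1 = 1
    rw [arrow_zero, fromBlocks_one])
  map_mul' v w := Subtype.ext (by
    show fromBlocks 1 0 (arrow (v.toAdd + w.toAdd)) 1 = fromBlocks 1 0 (arrow v.toAdd) 1 * fromBlocks 1 0 (arrow w.toAdd) 1
    rw [fromBlocks_multiply]
    simp [arrow_add])

/-- The involution. -/
def inv' (hm : Even (m + 1)) : ℤˣ →* Matrix.SpecialLinearGroup (Fin m ⊕ Fin (m + 1)) (ZMod p) where
  toFun u := ⟨fromBlocks 1 0 0 (((u : ℤ) : ZMod p) • (1 : Matrix (Fin (m + 1)) (Fin (m + 1)) (ZMod p))), by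
    rw [det_fromBlocks_zero₁₂, det_one, det_smul, det_one, one_mul, mul_one, Fintype.card_fin]
    rcases Int.units_eq_one_or u with rfl | rfl
    · simp
    · simp [hm.neg_one_pow]⟩
  map_one' := Subtype.ext (by simp [fromBlocks_one])
  map_mul' u w := Subtype.ext (by
    show fromBlocks 1 0 0 ((((u * w : ℤˣ) : ℤ) : ZMod p) • (1 : Matrix (Fin (m + 1)) (Fin (m + 1)) (ZMod p))) =
      fromBlocks 1 0 0 (((u : ℤ) : ZMod p) • 1) * fromBlocks 1 0 0 (((w : ℤ) : ZMod p) • 1)
    simp [fromBlocks_multiply, smul_smul, mul_comm])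

/-- The representation. -/
def rep (hm : Even (m + 1)) : Grp p →* Matrix.SpecialLinearGroup (Fin m ⊕ Fin (m + 1)) (ZMod p) :=
  SemidirectProduct.lift uni (inv' hm) fun u => MonoidHom.ext fun v => by
    show uni (signAut p u v) = inv' hm u * uni v * (inv' hm u)⁻¹
    rw [eq_mul_inv_iff_mul_eq]
    refine Subtype.ext ?_
    show fromBlocks 1 0 (arrow (fun i => ((u : ℤ) : ZMod p) * v.toAdd i)) 1 * fromBlocks 1 0 0 _ =
      fromBlocks 1 0 0 _ * fromBlocks 1 0 (arrow v.toAdd) 1
    simp [fromBlocks_multiply, arrow_smul]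

theorem scalar_of_arrows (a : Matrix (Fin m) (Fin m) (ZMod p)) (d : Matrix (Fin (m + 1)) (Fin (m + 1)) (ZMod p))
    (hm : 0 < m) (h : ∀ v : Fin 3 → ZMod p, d * arrow (m := m) v = arrow (m := m) v * a) :
    a = a ⟨0, hm⟩ ⟨0, hm⟩ • 1 ∧ d = a ⟨0, hm⟩ ⟨0, hm⟩ • 1 := by
  have hA : ∀ (i : Fin (m + 1)) (j : Fin m), d i j.castSucc = if hi : i.val < m then a ⟨i, hi⟩ j else 0 := fun i j => by
    have h0 := congrFun (congrFun (h ![1, 0, 0]) i) j
    rw [Matrix.mul_apply, Matrix.mul_apply] at h0
    simp only [arrow, Matrix.of_apply, Matrix.cons_val_zero, Matrix.cons_val_one,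
      Matrix.cons_val, ite_self, add_zero, mul_ite, mul_one, mul_zero, ite_mul, one_mul, zero_mul] at h0
    rw [Finset.sum_eq_single (f := fun x : Fin (m + 1) => if x.val = j.val then d i x else 0) j.castSucc
      (fun x _ hx => if_neg fun e => hx (Fin.ext e))
      (fun hn => absurd (Finset.mem_univ _) hn), if_pos (by simp)] at h0
    rw [h0]
    split_ifs with hi
    · rw [Finset.sum_eq_single ⟨i, hi⟩ (fun x _ hx => if_neg fun e => hx (Fin.ext e.symm))
        (fun hn => absurd (Finset.mem_univ _) hn), if_pos rfl]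
    · exact Finset.sum_eq_zero fun x _ => if_neg fun (e : i.val = x.val) => hi (e ▸ x.2)
  have hB : ∀ (i : Fin (m + 1)) (j : Fin m), d i j.succ =
      if hi : 0 < i.val then a ⟨i.val - 1, by omega⟩ j else 0 := fun i j => by
    have h0 := congrFun (congrFun (h ![0, 1, 0]) i) j
    rw [Matrix.mul_apply, Matrix.mul_apply] at h0
    simp only [arrow, Matrix.of_apply, Matrix.cons_val_zero, Matrix.cons_val_one,
      Matrix.cons_val, ite_self, add_zero, zero_add, mul_ite, mul_one, mul_zero, ite_mul, one_mul, zero_mul] at h0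
    rw [Finset.sum_eq_single (f := fun x : Fin (m + 1) => if x.val = j.val + 1 then d i x else 0) j.succ
      (fun x _ hx => if_neg fun e => hx (Fin.ext (by simp [e])))
      (fun hn => absurd (Finset.mem_univ _) hn), if_pos (by simp)] at h0
    rw [h0]
    split_ifs with hi
    · rw [Finset.sum_eq_single ⟨i.val - 1, by omega⟩ (fun x _ hx => if_neg fun (e : i.val = x.val + 1) =>
          hx (Fin.ext (by simp only; omega)))
        (fun hn => absurd (Finset.mem_univ _) hn), if_pos (show i.val = i.val - 1 + 1 by omega)]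
    · exact Finset.sum_eq_zero fun x _ => if_neg fun (e : i.val = x.val + 1) => hi (by omega)
  have hup : ∀ k : ℕ, ∀ i j : Fin m, i.val = k → i.val ≤ j.val →
      a i j = if i = j then a ⟨0, hm⟩ ⟨0, hm⟩ else 0 := by
    intro k
    induction k with
    | zero =>
      intro i j hi hij
      have e : i = ⟨0, hm⟩ := Fin.ext hi
      subst e
      by_cases hj : j = ⟨0, hm⟩
      · subst hj; simp
      · have hj0 : 0 < j.val := Nat.pos_of_ne_zero fun e => hj (Fin.ext e)
        have h1 := hA ⟨0, by omega⟩ j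
        rw [dif_pos hm] at h1
        rw [← h1, show j.castSucc = (⟨j.val - 1, by omega⟩ : Fin m).succ from Fin.ext (by simp; omega), hB,
          dif_neg (by simp), if_neg (Ne.symm hj)]
    | succ k ih =>
      intro i j hi hij
      have h1 := hA i.castSucc j
      rw [dif_pos (by simp)] at h1
      rw [show (⟨(i.castSucc).val, by simp⟩ : Fin m) = i from Fin.ext rfl] at h1
      rw [← h1, show j.castSucc = (⟨j.val - 1, by omega⟩ : Fin m).succ from Fin.ext (by simp; omega), hB,
        dif_pos (by simp; omega), ih _ _ (by simp; omega) (by simp; omega)]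
      refine if_congr ?_ rfl rfl
      simp only [Fin.ext_iff, Fin.val_castSucc]
      omega
  have hlow : ∀ k : ℕ, ∀ i j : Fin m, i.val + k + 1 = m → j.val < i.val → a i j = 0 := by
    intro k
    induction k with
    | zero =>
      intro i j hi hij
      have h1 := hB i.succ j
      rw [dif_pos (by simp)] at h1
      rw [show (⟨(i.succ).val - 1, by simp⟩ : Fin m) = i from Fin.ext (by simp)] at h1
      rw [← h1, show j.succ = (⟨j.val + 1, by omega⟩ : Fin m).castSucc from Fin.ext (by simp), hA,
        dif_neg (by simp; omega)]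
    | succ k ih =>
      intro i j hi hij
      have h1 := hB i.succ j
      rw [dif_pos (by simp)] at h1
      rw [show (⟨(i.succ).val - 1, by simp⟩ : Fin m) = i from Fin.ext (by simp)] at h1
      rw [← h1, show j.succ = (⟨j.val + 1, by omega⟩ : Fin m).castSucc from Fin.ext (by simp), hA,
        dif_pos (by simp; omega), ih _ _ (by simp; omega) (by simp; omega)]
  have ha : ∀ i j : Fin m, a i j = if i = j then a ⟨0, hm⟩ ⟨0, hm⟩ else 0 := fun i j => by
    rcases le_or_gt i.val j.val with hle | hlt
    · exact hup _ i j rfl hle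
    · rw [hlow (m - 1 - i.val) i j (by omega) hlt, if_neg fun e => by rw [e] at hlt; omega]
  refine ⟨Matrix.ext fun i j => ?_, Matrix.ext fun i j => ?_⟩
  · rw [ha, Matrix.smul_apply, Matrix.one_apply]; split_ifs <;> simp
  · rw [Matrix.smul_apply, Matrix.one_apply]
    induction j using Fin.lastCases with
    | cast j =>
      rw [hA]
      split_ifs with hi he he
      · rw [ha, if_pos (Fin.ext (by have e := congrArg Fin.val he; simp at e ⊢; omega))]; simp
      · rw [ha, if_neg (fun e => he (Fin.ext (by simpa [Fin.ext_iff] using e)))]; simp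
      · exact absurd (by have e := congrArg Fin.val he; simp at e ⊢; omega) hi
      · simp
    | last =>
      rw [show Fin.last m = (⟨m - 1, by omega⟩ : Fin m).succ from Fin.ext (by simp; omega), hB]
      split_ifs with hi he he
      · rw [ha, if_pos (Fin.ext (by have e := congrArg Fin.val he; simp at e ⊢; omega))]; simp
      · rw [ha, if_neg (fun e => he (Fin.ext (by simp [Fin.ext_iff] at e ⊢; omega)))]; simp
      · exact absurd (by have e := congrArg Fin.val he; simp at e ⊢; omega) hi
      · simp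

theorem rep_inl (hm : Even (m + 1)) (v : Multiplicative (Fin 3 → ZMod p)) :
    ((rep hm (SemidirectProduct.inl v)).1 : Matrix _ _ (ZMod p)) = fromBlocks 1 0 (arrow v.toAdd) 1 := by
  rw [rep, SemidirectProduct.lift_inl]; rfl

theorem rep_inr (hm : Even (m + 1)) (u : ℤˣ) :
    ((rep hm (SemidirectProduct.inr u)).1 : Matrix _ _ (ZMod p)) =
      fromBlocks 1 0 0 (((u : ℤ) : ZMod p) • (1 : Matrix (Fin (m + 1)) (Fin (m + 1)) (ZMod p))) := by
  rw [rep, SemidirectProduct.lift_inr]; rfl

/-- The projective representation. -/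
def prep (hm : Even (m + 1)) : Grp p →* Matrix.ProjectiveSpecialLinearGroup (Fin m ⊕ Fin (m + 1)) (ZMod p) :=
  (QuotientGroup.mk' _).comp (rep hm)

theorem prep_injective (hp : p ≠ 2) (hm : Even (m + 1)) (h3 : 3 ≤ m) : Function.Injective (prep (p := p) hm) := by
  refine (injective_iff_map_eq_one _).2 fun x hx => ?_
  obtain ⟨r, -, hr⟩ := Matrix.SpecialLinearGroup.mem_center_iff.1 ((QuotientGroup.eq_one_iff _).1 hx)
  have hval : ((rep hm x).1 : Matrix _ _ (ZMod p)) = fromBlocks 1 0 (arrow x.left.toAdd)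
      (((x.right : ℤ) : ZMod p) • (1 : Matrix (Fin (m + 1)) (Fin (m + 1)) (ZMod p))) := by
    conv_lhs => rw [← SemidirectProduct.inl_left_mul_inr_right x, map_mul]
    rw [Matrix.SpecialLinearGroup.coe_mul, rep_inl, rep_inr, fromBlocks_multiply]
    simp
  rw [hval, scalar_apply, ← smul_one_eq_diagonal, ← fromBlocks_one, fromBlocks_smul, smul_zero, smul_zero] at hr
  obtain ⟨h11, -, h21, h22⟩ := fromBlocks_inj.1 hr
  have hr1 : r = 1 := by simpa using congrFun (congrFun h11 ⟨0, by omega⟩) ⟨0, by omega⟩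
  refine SemidirectProduct.ext ?_ ?_
  · exact Multiplicative.toAdd.injective (eq_zero_of_arrow h3 h21.symm)
  · rcases Int.units_eq_one_or x.right with h | h
    · exact h
    · have h1 := congrFun (congrFun h22 0) 0
      simp [hr1, h] at h1
      haveI : Fact (2 < p) := ⟨lt_of_le_of_ne (Fact.out : p.Prime).two_le (Ne.symm hp)⟩
      exact absurd h1.symm (ZMod.neg_one_ne_one)

theorem centralizer_eq_bot (hp : p ≠ 2) (hm : Even (m + 1)) (h3 : 3 ≤ m) :
    Subgroup.centralizer ((prep (p := p) hm).range : Set (Matrix.ProjectiveSpecialLinearGroup (Fin m ⊕ Fin (m + 1)) (ZMod p))) = ⊥ := by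
  haveI : Fact (2 < p) := ⟨lt_of_le_of_ne (Fact.out : p.Prime).two_le (Ne.symm hp)⟩
  refine (Subgroup.eq_bot_iff_forall _).2 fun c hc => ?_
  obtain ⟨g, rfl⟩ := QuotientGroup.mk'_surjective _ c
  set M : Matrix (Fin m ⊕ Fin (m + 1)) (Fin m ⊕ Fin (m + 1)) (ZMod p) := g.1 with hMdef
  have hdet : M.det = 1 := g.2
  have hMu : IsUnit M := by rw [isUnit_iff_isUnit_det, hdet]; exact isUnit_one
  have key : ∀ x : Grp p, ∃ r : ZMod p, M * (rep hm x).1 = r • ((rep hm x).1 * M) := fun x => by
    have h := Subgroup.mem_centralizer_iff.1 hc (prep hm x) ⟨x, rfl⟩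
    rw [prep, MonoidHom.comp_apply, ← map_mul, ← map_mul, QuotientGroup.mk'_apply, QuotientGroup.mk'_apply,
      QuotientGroup.eq] at h
    obtain ⟨r, -, hr⟩ := Matrix.SpecialLinearGroup.mem_center_iff.1 h
    have h' : g * rep hm x = rep hm x * g * ((rep hm x * g)⁻¹ * (g * rep hm x)) := by group
    refine ⟨r, ?_⟩
    have h'' := congrArg Subtype.val h'
    change M * (rep hm x).1 = (rep hm x).1 * M * ((rep hm x * g)⁻¹ * (g * rep hm x)).1 at h''
    rw [show (((rep hm x * g)⁻¹ * (g * rep hm x)).1) = scalar _ r from hr.symm, scalar_apply, ← smul_one_eq_diagonal,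
      mul_smul_comm, mul_one] at h''
    exact h''
  obtain ⟨r, hr⟩ := key (SemidirectProduct.inr (-1))
  rw [rep_inr] at hr
  simp only [Units.val_neg, Units.val_one, Int.cast_neg, Int.cast_one] at hr
  set T : Matrix (Fin m ⊕ Fin (m + 1)) (Fin m ⊕ Fin (m + 1)) (ZMod p) :=
    fromBlocks 1 0 0 ((-1 : ZMod p) • (1 : Matrix (Fin (m + 1)) (Fin (m + 1)) (ZMod p))) with hT
  have hTT : T * T = 1 := by simp [hT, fromBlocks_multiply, fromBlocks_one]
  have hr2 : r * r = 1 := by
    have h1 : M * (T * T) = (r * r) • ((T * T) * M) := by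
      rw [← mul_assoc, hr, smul_mul_assoc, mul_assoc, hr, mul_smul_comm, smul_smul, ← mul_assoc]
    rw [hTT, mul_one, one_mul] at h1
    have h2 : (r * r - 1) • M = 0 := by rw [sub_smul, one_smul, ← h1, sub_self]
    refine sub_eq_zero.1 ((smul_eq_zero.1 h2).resolve_right fun h0 => ?_)
    rw [h0] at hMu
    exact not_isUnit_zero hMu
  have hr1 : r = 1 := by
    rcases mul_self_eq_one_iff.1 hr2 with h | h
    · exact h
    · exfalso
      have htr : T.trace = -1 := by
        simp [hT, Matrix.trace, Fintype.sum_sum_type, Matrix.diag]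
      have h1 : M * T * M⁻¹ = r • T := by
        rw [hr, smul_mul_assoc, mul_assoc, Matrix.mul_nonsing_inv _ (by rw [hdet]; exact isUnit_one), mul_one]
      have h2 := congrArg Matrix.trace h1
      rw [Matrix.trace_mul_comm, ← mul_assoc, Matrix.nonsing_inv_mul _ (by rw [hdet]; exact isUnit_one), one_mul,
        Matrix.trace_smul, htr, h, smul_eq_mul, neg_mul, one_mul, neg_neg] at h2
      exact ZMod.neg_one_ne_one h2
  rw [hr1, one_smul, ← fromBlocks_toBlocks M, hT, fromBlocks_multiply, fromBlocks_multiply] at hr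
  obtain ⟨-, h12, h21, -⟩ := fromBlocks_inj.1 hr
  simp only [Matrix.mul_zero, Matrix.zero_mul, zero_add, add_zero, Matrix.mul_one, Matrix.one_mul,
    neg_one_smul, Matrix.smul_mul, Matrix.mul_smul, Matrix.mul_neg, Matrix.neg_mul] at h12 h21
  have htwo : (2 : ZMod p) ≠ 0 := fun h => ZMod.neg_one_ne_one (n := p) (by linear_combination -h)
  have hb : M.toBlocks₁₂ = 0 := Matrix.ext fun i j => by
    have := congrFun (congrFun h12 i) j
    change -(M.toBlocks₁₂ i j) = M.toBlocks₁₂ i j at this
    exact (mul_eq_zero.1 (show (2 : ZMod p) * M.toBlocks₁₂ i j = 0 by linear_combination -this)).resolve_left htwo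
  have hc' : M.toBlocks₂₁ = 0 := Matrix.ext fun i j => by
    have := congrFun (congrFun h21 i) j
    change M.toBlocks₂₁ i j = -(M.toBlocks₂₁ i j) at this
    exact (mul_eq_zero.1 (show (2 : ZMod p) * M.toBlocks₂₁ i j = 0 by linear_combination this)).resolve_left htwo
  have harr : ∀ v : Fin 3 → ZMod p, M.toBlocks₂₂ * arrow v = arrow v * M.toBlocks₁₁ := fun v => by
    obtain ⟨s, hs⟩ := key (SemidirectProduct.inl (Multiplicative.ofAdd v))
    rw [rep_inl, ← fromBlocks_toBlocks M, hb, hc', fromBlocks_multiply, fromBlocks_multiply, fromBlocks_smul] at hs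
    obtain ⟨h11, -, h21', -⟩ := fromBlocks_inj.1 hs
    simp only [Matrix.mul_zero, Matrix.zero_mul, zero_add, add_zero, Matrix.mul_one, Matrix.one_mul, toAdd_ofAdd]
      at h11 h21'
    have hne : M.toBlocks₁₁ ≠ 0 := fun h0 => by
      haveI : Nonempty (Fin m) := ⟨⟨0, by omega⟩⟩
      have h' : M.det = 0 := by
        rw [← fromBlocks_toBlocks M, hb, det_fromBlocks_zero₁₂, h0, det_zero,
          zero_mul]
      rw [hdet] at h'
      exact one_ne_zero h'
    have hs1 : s = 1 := by
      have h2 : (s - 1) • M.toBlocks₁₁ = 0 := by rw [sub_smul, one_smul, ← h11, sub_self]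
      exact sub_eq_zero.1 ((smul_eq_zero.1 h2).resolve_right hne)
    rw [hs1, one_smul] at h21'
    exact h21'
  obtain ⟨ha, hd⟩ := scalar_of_arrows M.toBlocks₁₁ M.toBlocks₂₂ (by omega) harr
  refine (QuotientGroup.eq_one_iff _).2 (Matrix.SpecialLinearGroup.mem_center_iff.2 ⟨M.toBlocks₁₁ ⟨0, by omega⟩ ⟨0, by omega⟩, ?_, ?_⟩)
  · have h1 : M = M.toBlocks₁₁ ⟨0, by omega⟩ ⟨0, by omega⟩ • (1 : Matrix _ _ (ZMod p)) := by
      conv_lhs => rw [← fromBlocks_toBlocks M, hb, hc', ha, hd]
      rw [← fromBlocks_one, fromBlocks_smul, smul_zero, smul_zero]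
    have h2 := congrArg Matrix.det h1
    rw [hdet, det_smul, det_one, mul_one] at h2
    exact h2.symm
  · conv_rhs => rw [← fromBlocks_toBlocks g.1, hb, hc', ha, hd]
    rw [scalar_apply, ← smul_one_eq_diagonal, ← fromBlocks_one, fromBlocks_smul, smul_zero, smul_zero]

/-- The transfer to the standard index type. -/
theorem exists_hom (hp : p ≠ 2) (hm : Even (m + 1)) (h3 : 3 ≤ m) :
    ∃ φ : Grp p →* Matrix.ProjectiveSpecialLinearGroup (Fin (m + (m + 1))) (ZMod p), Function.Injective φ ∧
      Subgroup.centralizer (φ.range : Set (Matrix.ProjectiveSpecialLinearGroup (Fin (m + (m + 1))) (ZMod p))) = ⊥ := by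
  let e : Matrix.SpecialLinearGroup (Fin m ⊕ Fin (m + 1)) (ZMod p) ≃* Matrix.SpecialLinearGroup (Fin (m + (m + 1))) (ZMod p) :=
    { toFun := fun A => ⟨A.1.submatrix finSumFinEquiv.symm finSumFinEquiv.symm, by
        rw [det_submatrix_equiv_self]; exact A.2⟩
      invFun := fun A => ⟨A.1.submatrix finSumFinEquiv finSumFinEquiv, by rw [det_submatrix_equiv_self]; exact A.2⟩
      left_inv := fun A => Subtype.ext (by simp [submatrix_submatrix])
      right_inv := fun A => Subtype.ext (by simp [submatrix_submatrix])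
      map_mul' := fun A B => Subtype.ext (by
        show (A * B).1.submatrix finSumFinEquiv.symm finSumFinEquiv.symm =
          A.1.submatrix finSumFinEquiv.symm finSumFinEquiv.symm * B.1.submatrix finSumFinEquiv.symm finSumFinEquiv.symm
        exact (submatrix_mul_equiv A.1 B.1 _ _ _).symm) }
  let E : Matrix.ProjectiveSpecialLinearGroup (Fin m ⊕ Fin (m + 1)) (ZMod p) ≃*
      Matrix.ProjectiveSpecialLinearGroup (Fin (m + (m + 1))) (ZMod p) :=
    QuotientGroup.congr _ _ e (by
      ext x
      constructor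
      · rintro ⟨y, hy, rfl⟩
        refine Subgroup.mem_center_iff.2 fun z => ?_
        obtain ⟨w, rfl⟩ := e.surjective z
        show e w * e y = e y * e w
        rw [← map_mul, ← map_mul, Subgroup.mem_center_iff.1 hy w]
      · intro hx
        refine ⟨e.symm x, Subgroup.mem_center_iff.2 fun z => e.injective ?_, e.apply_symm_apply x⟩
        rw [map_mul, map_mul, e.apply_symm_apply]
        exact Subgroup.mem_center_iff.1 hx (e z))
  refine ⟨E.toMonoidHom.comp (prep hm), E.injective.comp (prep_injective hp hm h3), ?_⟩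
  refine (Subgroup.eq_bot_iff_forall _).2 fun c hc => ?_
  have h : E.symm c ∈ Subgroup.centralizer ((prep (p := p) hm).range : Set _) := by
    refine Subgroup.mem_centralizer_iff.2 ?_
    rintro _ ⟨x, rfl⟩
    apply E.injective
    rw [map_mul, map_mul, E.apply_symm_apply]
    exact Subgroup.mem_centralizer_iff.1 hc _ ⟨x, rfl⟩
  rw [centralizer_eq_bot hp hm h3, Subgroup.mem_bot] at h
  exact E.symm.injective (h.trans (map_one _).symm)

end CfsgLib.KroneckerBrick
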